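import Cfsg.Agent.Lib.H5.OneBlock
import Cfsg.Agent.Lib.H2.MathieuOrd

/-!
# Certificates for centralisers in the Mathieu group of degree 24
-/

set_option autoImplicit false
set_option linter.unusedSectionVars false

open Cfsg Cfsg.Agent.H2 Cfsg.Agent.H3 Subgroup

namespace Cfsg.Agent.H5

theorem eq_of_testBit_ix {a b : ℕ} (ha : a < 2 ^ 24) (hb : b < 2 ^ 24)
    (h : ∀ p, a.testBit (gN.ix p) = b.testBit (gN.ix p)) : a = b := by
  refine Nat.eq_of_testBit_eq fun i => ?_
  by_cases hi : i < 24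
  · rw [← gN.ix_pt i hi, h]
  · have h2 : 2 ^ 24 ≤ 2 ^ i := Nat.pow_le_pow_right (by decide) (by omega)
    rw [Nat.testBit_lt_two_pow (ha.trans_le h2), Nat.testBit_lt_two_pow (hb.trans_le h2)]

theorem pull_lt (c w : ℕ) : pull 5 31 24 c w < 2 ^ 24 := by
  refine Nat.lt_pow_two_of_testBit _ fun i hi => ?_
  rw [← Bool.not_eq_true, pull, testBit_orN]
  rintro ⟨j, hj, h⟩
  have : Nat.land (Nat.shiftRight w (dig 5 31 c j)) 1 < 2 := Nat.and_lt_two_pow _ (n := 1) (by decide)
  generalize Nat.land (Nat.shiftRight w (dig 5 31 c j)) 1 = u at this h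
  interval_cases u
  · change (0 <<< j).testBit _ = true at h
    simp at h
  · rw [testBit_one_shiftLeft] at h; omega

theorem inSpan_lt {x : ℕ} (h : InSpan gB x) : x < 2 ^ 24 :=
  InSpan.induction (P := fun x => x < 2 ^ 24) (by decide) (fun _ _ => Nat.xor_lt_two_pow)
    (by decide) h

theorem inSpan_pull {g : Equiv.Perm GolayPt} (hg : g ∈ M24) {w : ℕ} (h : InSpan gB w) :
    InSpan gB (pull 5 31 24 (gN.code g) w) := by
  obtain ⟨x, hx, e⟩ := exists_inSpan (mem_M24_iff.1 hg _ (wd_mem_of_inSpan h))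
  rwa [← eq_of_testBit_ix (inSpan_lt hx) (pull_lt _ _) fun p => by
    rw [gN.testBit_pull]; exact testBit_eq_of_wd (congrFun e p)]

theorem pop_eq_of_perm (g : Equiv.Perm GolayPt) {x w : ℕ}
    (h : ∀ a, x.testBit (gN.ix a) = w.testBit (gN.ix (g a))) : pop 24 x = pop 24 w := by
  rw [pop, pop, ← gN.card_eq_cntN, ← gN.card_eq_cntN]
  exact Nat.card_congr (Equiv.subtypeEquiv g fun a => by rw [tb_eq, tb_eq, h])

theorem code_mul {α : Type*} {k m n : ℕ} (N : Numbering α k m n) (g h : Equiv.Perm α) :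
    N.code (g * h) = mulP k m n (N.code g) (N.code h) := N.coding.code_mul g h

theorem code_one {α : Type*} {k m n : ℕ} (N : Numbering α k m n) : N.code 1 = mkN k id n :=
  N.coding.code_one

theorem code_inj {α : Type*} {k m n : ℕ} (N : Numbering α k m n) {g h : Equiv.Perm α}
    (e : N.code g = N.code h) : g = h := N.coding.inj e

/-- The elements of `M24` commuting with `qs` and stabilising the sets `Ws`. -/
def cs (qs : List (Equiv.Perm GolayPt)) (Ws : List ℕ) : Subgroup (Equiv.Perm GolayPt) where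
  carrier := {g | g ∈ M24 ∧ (∀ q ∈ qs, q * g = g * q) ∧
    ∀ W ∈ Ws, ∀ a, W.testBit (gN.ix (g a)) = W.testBit (gN.ix a)}
  one_mem' := ⟨one_mem _, by simp, by simp⟩
  mul_mem' := fun {g h} hg hh => ⟨mul_mem hg.1 hh.1,
    fun q hq => ((show Commute q g from hg.2.1 q hq).mul_right (hh.2.1 q hq)).eq,
    fun W hW a => by rw [Equiv.Perm.mul_apply, hg.2.2 W hW, hh.2.2 W hW]⟩
  inv_mem' := fun {g} hg => ⟨inv_mem hg.1,
    fun q hq => (show Commute q g from hg.2.1 q hq).inv_right.eq,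
    fun W hW a => by rw [← hg.2.2 W hW]; simp⟩

/-- Membership test for `cs`. -/
noncomputable def memCS (qc Ws : List ℕ) (c : ℕ) : Bool :=
  (memM24 c).and ((allL (fun q => Nat.beq (mulP 5 31 24 q c) (mulP 5 31 24 c q)) qc).and
    (allL (fun W => Nat.beq (pull 5 31 24 c W) W) Ws))

theorem memCS_sound (qs : List (Equiv.Perm GolayPt)) (Ws : List ℕ) (c : ℕ)
    (h : memCS (qs.map gN.code) Ws c = true) : ∃ g ∈ cs qs Ws, gN.code g = c := by
  simp only [memCS, Bool.and_eq_true, allL_iff, Nat.beq_eq] at h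
  obtain ⟨g, hg, rfl⟩ := memM24_sound c h.1
  refine ⟨g, ⟨hg, fun q hq => code_inj gN ?_, fun W hW a => ?_⟩, rfl⟩
  · rw [code_mul, code_mul]
    exact h.2.1 _ (List.mem_map_of_mem hq)
  · rw [← gN.testBit_pull, h.2.2 W hW]

/-- `W` is the set of fixed points. -/
noncomputable def fixChk (q W : ℕ) : Bool :=
  allN (fun i => ((tb W i).xor (Nat.beq (dig 5 31 q i) i)).not) 24

theorem fixChk_sound {q : Equiv.Perm GolayPt} {W : ℕ} (h : fixChk (gN.code q) W = true) (a : GolayPt) :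
    W.testBit (gN.ix a) = true ↔ q a = a := by
  have := allN_iff.1 h _ (gN.ix_lt a)
  rw [gN.dig_code_ix, tb_eq] at this
  have h2 : W.testBit (gN.ix a) = Nat.beq (gN.ix (q a)) (gN.ix a) := by simpa using this
  rw [h2, Nat.beq_eq]
  exact ⟨gN.ix_inj, congrArg gN.ix⟩

/-- The number of members of a list with a property. -/
noncomputable def cntL (p : ℕ → Bool) (l : List ℕ) : ℕ :=
  List.rec 0 (fun a _ ih => cond (p a) (Nat.succ ih) ih) l

theorem cntL_eq (p : ℕ → Bool) (l : List ℕ) : cntL p l = l.countP p := by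
  induction l with
  | nil => rfl
  | cons a l ih =>
    change cond (p a) (cntL p l).succ (cntL p l) = _
    rw [List.countP_cons, ih]
    cases p a <;> simp

/-- The counting rule. -/
noncomputable def cntRule (Ph : List ℕ) (F W : ℕ) : Bool :=
  allN (fun a => ((tb W a).xor (Nat.ble (Nat.shiftRight W 48) (cntL (fun w =>
    (Nat.beq (Nat.land (Nat.xor w (Nat.shiftRight W 24)) (Nat.land F 16777215)) 0).and
      (tb w a)) Ph))).not) 24

/-- The family `Ph` is permuted by the group. -/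
def Permutes (K : Subgroup (Equiv.Perm GolayPt)) (Ph : List ℕ) : Prop :=
  Ph.Nodup ∧ (∀ w ∈ Ph, w < 2 ^ 24) ∧ ∀ g ∈ K, ∀ w ∈ Ph, pull 5 31 24 (gN.code g) w ∈ Ph

theorem permutes_nil (K : Subgroup (Equiv.Perm GolayPt)) : Permutes K [] := by simp [Permutes]

theorem cntRule_sound {K : Subgroup (Equiv.Perm GolayPt)} {Ph : List ℕ} (hP : Permutes K Ph)
    {F W : ℕ} (h : cntRule Ph F W = true) {g : Equiv.Perm GolayPt} (hg : g ∈ gN.fixM K F)
    (a : GolayPt) : W.testBit (gN.ix (g a)) = W.testBit (gN.ix a) := by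
  have h1 : ∀ u : ℕ, Nat.land u (Nat.land F 16777215) = 0 ↔
      ∀ b, F.testBit (gN.ix b) = true → u.testBit (gN.ix b) = false := fun u => by
    have e : ∀ b, (Nat.land u (Nat.land F 16777215)).testBit (gN.ix b) =
        (u.testBit (gN.ix b) && F.testBit (gN.ix b)) := fun b => by
      change (u &&& (F &&& (2 ^ 24 - 1))).testBit _ = _
      simp only [Nat.testBit_and, Nat.testBit_two_pow_sub_one, gN.ix_lt b, decide_true, Bool.and_true]
    refine ⟨fun h b hb => by have := e b; rw [h, hb] at this; simpa using this.symm, fun h => eq_of_testBit_ix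
      (Nat.and_lt_two_pow _ (Nat.and_lt_two_pow _ (by decide))) (by decide) fun b => ?_⟩
    rw [e]
    cases hb : F.testBit (gN.ix b)
    · simp
    · simp [h b hb]
  let n : GolayPt → ℕ := fun a => cntL (fun w =>
    (Nat.beq (Nat.land (Nat.xor w (Nat.shiftRight W 24)) (Nat.land F 16777215)) 0).and
      (tb w (gN.ix a))) Ph
  have h2 : ∀ g ∈ gN.fixM K F, ∀ a, n (g a) ≤ n a := fun g hg a => by
    simp only [n, cntL_eq, List.countP_eq_length_filter]
    rw [← List.toFinset_card_of_nodup (hP.1.filter _), ← List.toFinset_card_of_nodup (hP.1.filter _)]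
    refine Finset.card_le_card_of_injOn (pull 5 31 24 (gN.code g)) (fun w hw => ?_)
      fun w hw w' hw' e => ?_
    · simp only [List.coe_toFinset, List.mem_filter, Bool.and_eq_true, Nat.beq_eq, h1, tb_eq,
        Set.mem_setOf_eq] at hw ⊢
      refine ⟨hP.2.2 g hg.1 w hw.1, fun b hb => ?_, by rw [gN.testBit_pull, hw.2.2]⟩
      have := hw.2.1 b hb
      change Nat.testBit (_ ^^^ _) _ = false at this ⊢
      rwa [Nat.testBit_xor, gN.testBit_pull, hg.2 b hb, ← Nat.testBit_xor]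
    · simp only [List.coe_toFinset, List.mem_filter, Set.mem_setOf_eq] at hw hw'
      refine eq_of_testBit_ix (hP.2.1 _ hw.1) (hP.2.1 _ hw'.1) fun b => ?_
      have := congrArg (fun x : ℕ => x.testBit (gN.ix (g⁻¹ b))) e
      simpa [gN.testBit_pull] using this
  have h3 : n (g a) = n a := le_antisymm (h2 g hg a) (by simpa using h2 g⁻¹ (inv_mem hg) (g a))
  have h4 : ∀ a, W.testBit (gN.ix a) = Nat.ble (Nat.shiftRight W 48) (n a) := fun a => by
    have := allN_iff.1 h _ (gN.ix_lt a)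
    rw [tb_eq] at this
    simpa [n] using this
  rw [h4, h4, h3]

/-- The invariance test for `cs`. -/
noncomputable def invCS (qc Ws Ph : List ℕ) (F W : ℕ) : Bool :=
  (invO F W).or ((anyL (Nat.beq W) Ws).or ((anyL (fun q => (fixChk q W).or
    (Nat.beq (Nat.land (pull 5 31 24 q W) F) (pull 5 31 24 q W))) qc).or (cntRule Ph F W)))

theorem chain_cs {qs : List (Equiv.Perm GolayPt)} {Ws Ph : List ℕ} (hP : Permutes (cs qs Ws) Ph)
    {qc : List ℕ} (hq : qs.map gN.code = qc) {F c : ℕ} (levels : List Level)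
    (h : chainCheck 5 31 24 (memCS qc Ws) (invCS qc Ws Ph) 16777215 levels F c = true) :
    Nat.card (gN.fixM (cs qs Ws) F) = c := by
  subst hq
  rw [gN.chain_sound (memCS_sound qs Ws) (fun F W h g hg a => ?_) levels F c h,
    show 16777215 = 2 ^ 24 - 1 from rfl, gN.fixM_all, card_bot, mul_one]
  simp only [invCS, Bool.or_eq_true, anyL_iff, Nat.beq_eq] at h
  rcases h with h | ⟨W, hW, rfl⟩ | ⟨_, hq, h⟩ | h
  · exact invO_sound h hg.1.1 hg.2 a
  · exact hg.1.2.2 _ hW a
  · obtain ⟨q, hq', e⟩ := List.mem_map.1 hq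
    rw [← e] at h
    have hc : ∀ a, q (g a) = g (q a) := fun a => by
      rw [← Equiv.Perm.mul_apply, hg.1.2.1 q hq', Equiv.Perm.mul_apply]
    rcases h with h | h
    · rw [Bool.eq_iff_iff, fixChk_sound h, fixChk_sound h, hc, g.apply_eq_iff_eq]
    · have h1 : ∀ a, W.testBit (gN.ix a) = true → g a = a := fun a ha => by
        obtain ⟨a, rfl⟩ := q.surjective a
        rw [← gN.testBit_pull, ← h] at ha
        change Nat.testBit (_ &&& _) _ = true at ha
        rw [Nat.testBit_and, Bool.and_eq_true] at ha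
        rw [← hc, hg.2 a ha.2]
      rw [Bool.eq_iff_iff]
      exact ⟨fun h => by rwa [← g.injective (h1 _ h)], fun h => by rwa [h1 _ h]⟩
  · exact cntRule_sound hP h hg a

/-- `Ph` lists the octads meeting their image in `t` points. -/
noncomputable def famChk (q t : ℕ) (Ph : List ℕ) : Bool :=
  (allL (fun w => (Nat.beq (H2.red gB w) 0).and ((Nat.beq (pop 24 w) 8).and
    (Nat.beq (pop 24 (Nat.land w (pull 5 31 24 q w))) t))) Ph).and
  (allSpan (fun w => (Nat.beq (pop 24 w) 8).not.or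
    ((Nat.beq (pop 24 (Nat.land w (pull 5 31 24 q w))) t).not.or (anyL (Nat.beq w) Ph))) gB 0)

theorem famChk_sound {q : Equiv.Perm GolayPt} {t : ℕ} {Ph : List ℕ} (hn : Ph.Nodup)
    (h : famChk (gN.code q) t Ph = true) : Permutes (cs [q] []) Ph := by
  simp only [famChk, Bool.and_eq_true, allL_iff, Nat.beq_eq] at h
  refine ⟨hn, fun w hw => inSpan_lt (inSpan_of_red (h.1 w hw).1), fun g hg w hw => ?_⟩
  obtain ⟨h1, h2, h3⟩ := h.1 w hw
  have h4 := allSpan_sound h.2 _ (inSpan_pull hg.1 (inSpan_of_red h1))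
  have hc : ∀ a, q (g a) = g (q a) := fun a => DFunLike.congr_fun (hg.2.1 q (by simp)) a
  rw [Nat.zero_xor, pop_eq_of_perm g (gN.testBit_pull g w), h2, pop_eq_of_perm g
    (w := Nat.land w (pull 5 31 24 (gN.code q) w)) fun a => ?_, h3] at h4
  · simpa [anyL_iff] using h4
  · change Nat.testBit (_ &&& _) _ = Nat.testBit (_ &&& _) _
    simp only [Nat.testBit_and, gN.testBit_pull, hc]

theorem eq_one_of_card {K : Subgroup (Equiv.Perm GolayPt)} {n : ℕ} (h : Nat.card K = 2 ^ n)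
    {y : Equiv.Perm GolayPt} (hy : y ∈ K) (ho : ¬ 2 ∣ orderOf y) : y = 1 :=
  eq_one_of_pElt_of_pReg (p := 2) (pElt_of_mem (IsPGroup.of_card h) hy) ho

theorem charP_at_of {G : Subgroup (Equiv.Perm GolayPt)} (hG : G ≤ M24) (z : G)
    {Q : Subgroup (Equiv.Perm GolayPt)} {n m : ℕ} (hQ : Nat.card Q = 2 ^ n)
    (h1 : ∀ q ∈ Q, q * z = z * q) (h2 : ∀ c ∈ M24, c * z = z * c → ∀ q ∈ Q, c * q * c⁻¹ ∈ Q)
    {qs : List (Equiv.Perm GolayPt)} (hqs : ∀ q ∈ qs, q ∈ G ∧ q ∈ Q)
    (hC : Nat.card (cs qs []) = 2 ^ m) : CharP_at 2 z :=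
  ⟨Q.subgroupOf G, (IsPGroup.of_card hQ).comap_subtype, fun q hq => Subtype.ext (h1 q hq),
    fun c hc q hq => h2 c (hG c.2) (congrArg Subtype.val hc) q hq, fun y hy ho =>
    Subtype.ext (eq_one_of_card hC ⟨hG y.2, fun q hq => congrArg Subtype.val
      (hy ⟨q, (hqs q hq).1⟩ (hqs q hq).2), by simp⟩ (by rwa [orderOf_coe]))⟩

theorem conj_mem_cs {z c q : Equiv.Perm GolayPt} {Ws : List ℕ} (hc : c ∈ M24) (hcz : c * z = z * c)
    (hW : ∀ W ∈ Ws, pull 5 31 24 (gN.code c) W ∈ Ws) (hq : q ∈ cs [z] Ws) :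
    c * q * c⁻¹ ∈ cs [z] Ws := by
  refine ⟨mul_mem (mul_mem hc hq.1) (inv_mem hc), fun z' hz' => ?_, fun W hW' a => ?_⟩
  · obtain rfl := List.mem_singleton.1 hz'
    exact (((show Commute c z' from hcz).symm.mul_right (hq.2.1 z' hz')).mul_right
      (show Commute c z' from hcz).symm.inv_right).eq
  · rw [Equiv.Perm.mul_apply, Equiv.Perm.mul_apply, ← gN.testBit_pull c, hq.2.2 _ (hW W hW'),
      gN.testBit_pull]
    simp

theorem card_centralizer_eq {G : Subgroup (Equiv.Perm GolayPt)} {F : ℕ} (hG : G = gN.fixM M24 F)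
    (x : G) : Nat.card (centralizer ({x} : Set G)) = Nat.card (gN.fixM (cs [x.1] []) F) := by
  subst hG
  rw [← card_map_of_injective (gN.fixM M24 F).subtype_injective]
  congr 2
  ext g
  constructor
  · rintro ⟨g, hg, rfl⟩
    exact ⟨⟨g.2.1, by simpa using congrArg Subtype.val (mem_centralizer_singleton_iff.1 hg).symm,
      by simp⟩, g.2.2⟩
  · exact fun h => ⟨⟨g, h.1.1, h.2⟩, mem_centralizer_singleton_iff.2
      (Subtype.ext (h.1.2.1 x (by simp)).symm), rfl⟩

section Coding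

variable {X : Type*} [Group X]

/-- The coding of a subgroup. -/
def subCoding (C : Coding X) (G : Subgroup X) : Coding G where
  code g := C.code g
  inj _ _ h := Subtype.ext (C.inj h)
  mul := C.mul
  code_mul _ _ := C.code_mul _ _
  one := C.one
  code_one := C.code_one

theorem exists_list' (C : Coding X) {mem : ℕ → Bool} (hmem : ∀ c, mem c = true → ∃ g, C.code g = c)
    {l : List ℕ} (h : allL mem l = true) : ∃ gs : List X, gs.map C.code = l :=
  (C.exists_list (G := ⊤) (fun c hc => (hmem c hc).imp fun _ h => ⟨mem_top _, h⟩) h).imp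
    fun _ h => h.1

theorem invol_cert [Finite X] (C : Coding X) {mem : ℕ → Bool}
    (hmem : ∀ c, mem c = true → ∃ g, C.code g = c) (l : List ℕ) (R : List (ℕ × List ℕ))
    (rc cert : List ℕ) (h0 : allL mem l = true) (h1 : pcCheck C.mul C.one l R = true)
    (hc : ¬ 2 ^ (l.length + 1) ∣ Nat.card X) (h2 : allL mem rc = true)
    (h3 : allZ (fun x g => (Nat.beq (C.mul x x) C.one).not.or ((Nat.beq x C.one).or
      ((mem g).and (anyL (fun r => Nat.beq (C.mul g x) (C.mul r g)) rc))))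
      (elts C.mul C.one l) cert = true) {z : X} (hz : orderOf z = 2) :
    ∃ z', IsConj z z' ∧ C.code z' ∈ rc := by
  obtain ⟨gs, rfl⟩ := exists_list' C hmem h0
  have hp := C.pc_of_check _ _ h1
  have h4 : Nat.card (lcl gs) = 2 ^ (Nat.card X).factorization 2 := by
    rw [hp.card]
    congr 1
    have h5 := (Nat.prime_two.pow_dvd_iff_le_factorization (k := gs.length) Nat.card_pos.ne').1
      (hp.card ▸ (lcl gs).card_subgroup_dvd_card)
    have h6 := mt (Nat.prime_two.pow_dvd_iff_le_factorization (k := gs.length + 1)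
      Nat.card_pos.ne').2 (by simpa using hc)
    omega
  obtain ⟨g, hg⟩ := H6.exists_cj_le_sylow (Sylow.ofCard _ h4)
    (isPGroup_zpowers (p := 2) ⟨1, hz⟩)
  have h5 : g * z * g⁻¹ ∈ lcl gs := hg (H6.conj_mem_cj (mem_zpowers z))
  have h6 : orderOf (g * z * g⁻¹) = 2 := by rw [orderOf_conj', hz]
  obtain ⟨c, hc⟩ := allZ_sound h3 _ (C.mem_elts hp _ h5)
  have h7 : IsConj z (g * z * g⁻¹) := isConj_iff.2 ⟨g, rfl⟩
  generalize g * z * g⁻¹ = x at h6 hc h7
  simp only [Bool.or_eq_true, Bool.and_eq_true, Nat.beq_eq, Bool.not_eq_true', anyL_iff,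
    ← C.code_mul, ← C.code_one] at hc
  rcases hc with hc | hc | ⟨hc, r, hr, e⟩
  · rw [← pow_two, ← h6, pow_orderOf_eq_one] at hc
    simp at hc
  · rw [C.inj hc, orderOf_one] at h6
    exact absurd h6 (by decide)
  · obtain ⟨c, rfl⟩ := hmem c hc
    obtain ⟨r, rfl⟩ := hmem r (allL_iff.1 h2 r hr)
    rw [← C.code_mul, ← C.code_mul] at e
    exact ⟨r, h7.trans (isConj_iff.2 ⟨c, by rw [C.inj e, mul_inv_cancel_right]⟩), hr⟩

theorem sum_cert [Finite X] (C : Coding X) {mem : ℕ → Bool}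
    (hmem : ∀ c, mem c = true → ∃ g, C.code g = c) (L : List (ℕ × ℕ × ℕ)) {rs : List X}
    {rc : List ℕ} (hr : rs.map C.code = rc) (hn : (L.map Prod.fst).Nodup)
    (h1 : C.one ∈ L.map Prod.fst)
    (h2 : allL (fun e => (mem e.1).and ((mem e.2.1).and
      (Nat.beq (C.mul e.2.1 e.1) (C.mul (rc.getD e.2.2 C.one) e.2.1)))) L = true)
    (h3 : allL (fun a => allL (fun b => anyL (Nat.beq (C.mul a b)) (L.map Prod.fst))
      (L.map Prod.fst)) (L.map Prod.fst) = true) (χ : IrrCharacter X) :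
    ∃ m : ℕ, (L.map fun e => (χ : X → ℂ) (rs.getD e.2.2 1)).sum = L.length * m := by
  simp only [allL_iff, anyL_iff, Bool.and_eq_true, Nat.beq_eq] at h2 h3
  obtain ⟨gs, e⟩ := exists_list' C hmem (l := L.map Prod.fst) (allL_iff.2 fun a ha => by
    obtain ⟨e, he, rfl⟩ := List.mem_map.1 ha
    exact (h2 e he).1)
  have hm : ∀ x, x ∈ gs ↔ C.code x ∈ L.map Prod.fst := fun x => by
    rw [← e, List.mem_map_of_injective C.inj]
  obtain ⟨m, hm⟩ := exists_sum_list_eq χ (l := gs) (List.Nodup.of_map C.code (e ▸ hn))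
    ((hm 1).2 (C.code_one ▸ h1)) fun a ha b hb => by
      obtain ⟨c, hc, e'⟩ := h3 _ ((hm a).1 ha) _ ((hm b).1 hb)
      rwa [hm, C.code_mul, e']
  refine ⟨m, ?_⟩
  have hl : gs.length = L.length := by simpa using congrArg List.length e
  rw [← hl, ← hm]
  congr 1
  refine List.ext_getElem (by simp [hl]) fun i h4 h5 => ?_
  simp only [List.length_map] at h4 h5
  obtain ⟨-, h6, h7⟩ := h2 _ (List.getElem_mem h4)
  obtain ⟨g, hg⟩ := hmem _ h6
  have h8 : C.code gs[i] = L[i].1 := by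
    have := List.getElem_of_eq e (i := i) (by simpa using h5)
    simpa using this
  have h9 : ∀ j, rc.getD j C.one = C.code (rs.getD j 1) := fun j => by
    rw [← hr, ← C.code_one, List.getD_map]
  rw [← hg, ← h8, h9, ← C.code_mul, ← C.code_mul] at h7
  rw [List.getElem_map, List.getElem_map]
  exact (IsClassFunction_of_isConj (irr_isClassFunction χ)
    (isConj_iff.2 ⟨g, by rw [C.inj h7, mul_inv_cancel_right]⟩)).symm

end Coding

section Numbering

variable {α : Type*} {k m n : ℕ} (N : Numbering α k m n) {G : Subgroup (Equiv.Perm α)}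
  {mem : ℕ → Bool}

theorem invol_cert' [Finite G] (hmem : ∀ c, mem c = true → ∃ g ∈ G, N.code g = c) (l : List ℕ)
    (R : List (ℕ × List ℕ)) (rc cert : List ℕ) (h0 : allL mem l = true)
    (h1 : pcCheck (mulP k m n) (mkN k id n) l R = true)
    (hc : ¬ 2 ^ (l.length + 1) ∣ Nat.card G) (h2 : allL mem rc = true)
    (h3 : allZ (fun x g => (Nat.beq (mulP k m n x x) (mkN k id n)).not.or
      ((Nat.beq x (mkN k id n)).or ((mem g).and
        (anyL (fun r => Nat.beq (mulP k m n g x) (mulP k m n r g)) rc))))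
      (elts (mulP k m n) (mkN k id n) l) cert = true) {z : G} (hz : orderOf z = 2) :
    ∃ z' : G, IsConj z z' ∧ N.code z' ∈ rc :=
  invol_cert (subCoding N.coding G) (fun c hc => (hmem c hc).elim fun g h => ⟨⟨g, h.1⟩, h.2⟩)
    l R rc cert h0 h1 hc h2 h3 hz

theorem sum_cert' [Finite G] (hmem : ∀ c, mem c = true → ∃ g ∈ G, N.code g = c)
    (L : List (ℕ × ℕ × ℕ)) {rs : List G} {rc : List ℕ} (hr : rs.map (fun g => N.code g.1) = rc)
    (hn : (L.map Prod.fst).Nodup) (h1 : mkN k id n ∈ L.map Prod.fst)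
    (h2 : allL (fun e => (mem e.1).and ((mem e.2.1).and (Nat.beq (mulP k m n e.2.1 e.1)
      (mulP k m n (rc.getD e.2.2 (mkN k id n)) e.2.1)))) L = true)
    (h3 : allL (fun a => allL (fun b => anyL (Nat.beq (mulP k m n a b)) (L.map Prod.fst))
      (L.map Prod.fst)) (L.map Prod.fst) = true) (χ : IrrCharacter G) :
    ∃ j : ℕ, (L.map fun e => (χ : G → ℂ) (rs.getD e.2.2 1)).sum = L.length * j :=
  sum_cert (subCoding N.coding G) (fun c hc => (hmem c hc).elim fun g h => ⟨⟨g, h.1⟩, h.2⟩)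
    L hr hn h1 h2 h3 χ

theorem int_of_cert [Finite G] (hmem : ∀ c, mem c = true → ∃ g ∈ G, N.code g = c) {x : G}
    {c : ℕ} (hx : N.code x = c) (g : ℕ)
    (h : ((Nat.beq c (mkN k id n)).not.and ((Nat.beq (mulP k m n (mulP k m n c c) c)
      (mkN k id n)).and ((mem g).and (Nat.beq (mulP k m n g c)
      (mulP k m n (mulP k m n c c) g))))) = true) (χ : IrrCharacter G) :
    x ≠ 1 ∧ ∃ a : ℤ, (χ : G → ℂ) x = a ∧ (3 : ℤ) ∣ charDegree (χ : G → ℂ) + 2 * a := by
  simp only [Bool.and_eq_true, Nat.beq_eq, Bool.not_eq_true'] at h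
  obtain ⟨h1, h2, h3, h4⟩ := h
  obtain ⟨g, hg, rfl⟩ := hmem g h3
  have h0 : mkN k id n = N.code 1 := N.coding.code_one.symm
  simp only [← hx, ← code_mul, h0] at h1 h2 h4
  have h5 : x ≠ 1 := fun e => by simp [e] at h1
  refine ⟨h5, exists_int_of_order_three χ h5 (Subtype.ext (code_inj N h2))
    (isConj_iff.2 ⟨⟨g, hg⟩, Subtype.ext ?_⟩)⟩
  change g * x * g⁻¹ = x * x
  rw [code_inj N h4, mul_inv_cancel_right]

theorem exists_map_code (hmem : ∀ c, mem c = true → ∃ g ∈ G, N.code g = c) {l : List ℕ}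
    (h : allL mem l = true) : ∃ gs : List (Equiv.Perm α), gs.map N.code = l ∧ ∀ g ∈ gs, g ∈ G :=
  N.coding.exists_list hmem h

end Numbering

end Cfsg.Agent.H5
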