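import Cfsg.Agent.Lib.H5.Third
import Cfsg.Agent.Lib.H3.Main

/-!
# Groups with a single block
-/

set_option autoImplicit false
set_option linter.unusedSectionVars false

open MonoidAlgebra Cfsg Cfsg.Agent.H3 Cfsg.Agent.H6 Subgroup
open scoped ComplexConjugate

namespace Cfsg.Agent.H5

variable {p : ℕ} [Fact p.Prime] {G : Type*} [Group G] [Finite G]

/-- The centraliser of `z` has characteristic `p`. -/
def CharP_at (p : ℕ) (z : G) : Prop :=
  ∃ Q : Subgroup G, IsPGroup p Q ∧ (∀ q ∈ Q, q * z = z * q) ∧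
    (∀ c, c * z = z * c → ∀ q ∈ Q, c * q * c⁻¹ ∈ Q) ∧
    ∀ y, (∀ q ∈ Q, q * y = y * q) → ¬ p ∣ orderOf y → y = 1

theorem br_eq_zero_of_charP_at {M : Ideal AlgInt} [PMod p M] {z : G}
    (hz : ∃ k : ℕ, orderOf z = p ^ k) (h : CharP_at p z) {B : Set (IrrCharacter G)}
    (hB : IsPBlock M B) (hB' : B ≠ principalBlock M G) :
    br (zpowers z) (red M (blockIdem B)) = 0 := by
  obtain ⟨Q, hQ, h1, h2, h3⟩ := h
  have hmem : ∀ c, c ∈ centralizer (zpowers z : Set G) ↔ c * z = z * c := fun c => by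
    rw [centralizer_zpowers, mem_centralizer_singleton_iff]
  have : (Q.subgroupOf (centralizer (zpowers z : Set G))).Normal :=
    ⟨fun q hq c => h2 c ((hmem c).1 c.2) q hq⟩
  have h4 : principalBlock M (centralizer (zpowers z : Set G)) = Set.univ :=
    Set.eq_univ_of_forall fun ξ => mem_principal.2 (sameBlock_of_centralizer
      (N := Q.subgroupOf _) (hQ.comap_subtype) (fun g hg hg' => Subtype.ext (h3 g (fun q hq =>
        congrArg Subtype.val (hg ⟨q, (hmem q).2 (h1 q hq)⟩ hq)) (by rwa [orderOf_coe]))) _ _)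
  have h5 := red_resS_mul (M := M) (isPGroup_zpowers hz) (blk_idem_mem hB)
    (blk_idem_mem (isPBlock_principal (M := M)))
  have h6 : B ∩ principalBlock M G = ∅ := Set.eq_empty_of_forall_notMem fun χ hχ =>
    hB' (blk_eq_of_mem hB isPBlock_principal hχ.1 hχ.2)
  rw [red_resS_principal (isPGroup_zpowers hz), h4, blockIdem_univ, red_one, mul_one,
    blockIdem_mul, h6, blockIdem_empty, map_zero, red_zero, red_resS] at h5
  exact br_eq_zero_iff.2 fun x hx => (congrArg (fun a => a.coeff ⟨x, hx⟩) h5).symm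

theorem factorization_eq_of_notMem_principal {M : Ideal AlgInt} [PMod p M]
    (h : ∀ z : G, orderOf z = p → ∃ z', IsConj z z' ∧ CharP_at p z') {χ : IrrCharacter G}
    (hχ : χ ∉ principalBlock M G) :
    (charDegree (χ : G → ℂ)).factorization p = (Nat.card G).factorization p := by
  have hB := isPBlock_blockOf (M := M) χ
  obtain ⟨D, hD⟩ := exists_defectGroup hB
  by_cases hD1 : D = ⊥
  · have := index_defectGroup_le_degree hB hD (self_mem_blockOf χ)
    rw [hD1, index_bot] at this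
    exact le_antisymm (factorization_degree_le χ) this
  exfalso
  have : Nontrivial D := (nontrivial_iff_ne_bot D).2 hD1
  obtain ⟨n, hn, hn'⟩ := (defectGroup_isPGroup hD).nontrivial_iff_card.1 this
  obtain ⟨z, hz⟩ := exists_prime_orderOf_dvd_card' (G := D) p (hn' ▸ dvd_pow_self p hn.ne')
  rw [← orderOf_coe] at hz
  obtain ⟨z', hc, hz'⟩ := h z hz
  have h1 : ∃ k : ℕ, orderOf z' = p ^ k := ⟨1, by rw [← orderOf_eq_of_isConj hc, hz, pow_one]⟩
  obtain ⟨g, rfl⟩ := isConj_iff.1 hc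
  refine (br_ne_zero_iff_le hB hD (isPGroup_zpowers h1)).2 ⟨g⁻¹, ?_⟩
    (br_eq_zero_of_charP_at h1 hz' hB fun h => hχ (h ▸ self_mem_blockOf χ))
  rw [← cj_zpowers, cj_inv_cj]
  exact zpowers_le.2 z.2

omit [Fact p.Prime] in
theorem degree_sq_add_le (χ : IrrCharacter G) {x : G} (hx : x ≠ 1) {a : ℤ}
    (ha : (χ : G → ℂ) x = a) : (charDegree (χ : G → ℂ) : ℤ) ^ 2 +
      (centralizer ({x} : Set G)).index * a ^ 2 ≤ Nat.card G := by
  classical
  have := Fintype.ofFinite G
  have h1 := classInner_irr χ χ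
  rw [if_pos rfl, H3.classInner_self_eq] at h1
  have h2 : ∑ g, ‖(χ : G → ℂ) g‖ ^ 2 = Nat.card G := by
    have h3 : (Nat.card G : ℝ)⁻¹ * ∑ g, ‖(χ : G → ℂ) g‖ ^ 2 = 1 := by exact_mod_cast h1
    have h4 : (Nat.card G : ℝ) ≠ 0 := by exact_mod_cast Nat.card_pos.ne'
    field_simp at h3
    exact h3
  have h5 : (1 : G) ∉ Finset.univ.filter (IsConj x) := by simpa using hx
  have h6 := Finset.sum_le_sum_of_subset_of_nonneg (f := fun g => ‖(χ : G → ℂ) g‖ ^ 2)
    (Finset.subset_univ (insert 1 (Finset.univ.filter (IsConj x)))) fun _ _ _ => sq_nonneg _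
  rw [h2, Finset.sum_insert h5, Finset.sum_congr rfl (g := fun _ => (a : ℝ) ^ 2) fun g hg => by
    rw [← IsClassFunction_of_isConj (irr_isClassFunction χ) (Finset.mem_filter.1 hg).2, ha,
      Complex.norm_intCast, sq_abs], Finset.sum_const, card_filter_isConj, ← irr_charDegree,
    Complex.norm_natCast, nsmul_eq_mul] at h6
  exact_mod_cast h6

omit [Fact p.Prime] in
theorem degree_dvd_index_mul (χ : IrrCharacter G) {x : G} {a : ℤ} (ha : (χ : G → ℂ) x = a) :
    (charDegree (χ : G → ℂ) : ℤ) ∣ (centralizer ({x} : Set G)).index * a := by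
  refine int_dvd_of_isIntegral_div (by exact_mod_cast charDegree_ne_zero χ) ?_
  have := centralChar_isIntegral χ.2 x
  rw [centralChar_eq, ha] at this
  push_cast
  rwa [← div_mul_eq_mul_div]

omit [Fact p.Prime] in
theorem exists_sum_list_eq (χ : IrrCharacter G) {l : List G} (hl : l.Nodup) (h1 : 1 ∈ l)
    (hm : ∀ a ∈ l, ∀ b ∈ l, a * b ∈ l) :
    ∃ m : ℕ, (l.map (χ : G → ℂ)).sum = l.length * m := by
  classical
  let S : Submonoid G := ⟨⟨{x | x ∈ l}, fun ha hb => hm _ ha _ hb⟩, h1⟩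
  let T : Subgroup G := ⟨S, fun {x} hx => by
    have h2 : x⁻¹ = x ^ (orderOf x - 1) := by
      rw [inv_eq_iff_mul_eq_one, ← pow_succ', Nat.sub_add_cancel (orderOf_pos x),
        pow_orderOf_eq_one]
    exact h2 ▸ S.pow_mem hx _⟩
  have := Fintype.ofFinite T
  obtain ⟨m, hm⟩ := IsCharacter_classInner (IsCharacter_restrict T (irr_isCharacter χ))
    (irr_isCharacter (trivChar T))
  have h2 : ∀ f : G → ℂ, ∑ t : T, f t = (l.map f).sum := fun f => by
    rw [← List.sum_toFinset f hl, Finset.sum_subtype l.toFinset (p := fun x => x ∈ T)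
      fun x => List.mem_toFinset]
  have h3 : (Nat.card T : ℂ) = l.length := by simpa using h2 fun _ => 1
  refine ⟨m, ?_⟩
  rw [← hm, classInner, ← h3, mul_inv_cancel_left₀ (by exact_mod_cast Nat.card_pos.ne'), ← h2]
  simp

omit [Fact p.Prime] in
theorem exists_int_of_order_three (χ : IrrCharacter G) {x : G} (hx : x ≠ 1) (h3 : x * x * x = 1)
    (hc : IsConj x (x * x)) : ∃ a : ℤ, (χ : G → ℂ) x = a ∧
      (3 : ℤ) ∣ charDegree (χ : G → ℂ) + 2 * a := by
  have h2 : x * x ≠ 1 := fun h => hx (by rwa [h, one_mul] at h3)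
  have h3' : x * (x * x) = 1 := by rwa [← mul_assoc]
  have h4 : x * x * (x * x) = x := by rw [← mul_assoc, h3, one_mul]
  obtain ⟨m, hm⟩ := exists_sum_list_eq χ (l := [1, x, x * x])
    (by simp [hx, h2, hx.symm, h2.symm]) (by simp) (by simp [h3, h3', h4])
  rw [List.map_cons, List.map_cons, List.map_singleton, List.sum_cons, List.sum_cons,
    List.sum_singleton, ← IsClassFunction_of_isConj (irr_isClassFunction χ) hc,
    ← irr_charDegree] at hm
  have h5 : (χ : G → ℂ) x = ((3 * m - charDegree (χ : G → ℂ) : ℤ) : ℂ) / ((2 : ℤ) : ℂ) := by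
    simp only [List.length_cons, List.length_nil] at hm
    push_cast at hm ⊢
    linear_combination hm / 2
  obtain ⟨a, ha⟩ := int_dvd_of_isIntegral_div two_ne_zero
    (h5 ▸ IsCharacter_isIntegral (irr_isCharacter χ) x)
  refine ⟨a, by rw [h5, ha]; push_cast; ring, m, by omega⟩

end Cfsg.Agent.H5
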