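import Cfsg.Agent.Lib.FT.PF09b
import Cfsg.Agent.Lib.H4.Monomial

/-!
# Solvable groups with squarefree character degrees have derived length at most 4
-/

set_option autoImplicit false
set_option linter.unusedSectionVars false

namespace Cfsg.Agent.H5.SqF

open Subgroup Cfsg.Agent.H6 Cfsg.Agent.FT
open scoped ComplexConjugate Classical

variable {G : Type*} [Group G] [Finite G]

theorem dvd_prime_of_sqfree {p n : ℕ} (hp : p.Prime) (hn : Squarefree n) (h : PiN {p} n) :
    n ∣ p := by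
  obtain ⟨k, rfl⟩ := (piN_singleton_iff hp hn.ne_zero).1 h
  rcases k with _ | _ | k
  · simp
  · simp
  · exact absurd (hn p ⟨p ^ k, by ring⟩) (by
      rw [Nat.isUnit_iff]; exact hp.ne_one)

theorem normalIn_of_relIndex {p : ℕ} {M P : Subgroup G} (hp : p.Prime) (hP : IsPGroup p P)
    (hle : M ≤ P) (hi : M.relIndex P ∣ p) : NormalIn M P := by
  haveI := Fact.mk hp
  refine NormalIn.of_subgroupOf hle ?_
  rcases (Nat.dvd_prime hp).1 hi with h1 | h1
  · exact Subgroup.normal_of_index_eq_one h1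
  · refine Subgroup.normal_of_index_eq_minFac_card ?_
    obtain ⟨k, hk⟩ := hP.exists_card_eq
    have hd : p ∣ Nat.card P := h1 ▸ (M.subgroupOf P).index_dvd_card
    have hk0 : k ≠ 0 := by
      rintro rfl
      rw [hk, pow_zero] at hd
      exact hp.one_lt.ne' (Nat.dvd_one.1 hd)
    rw [hk, hp.pow_minFac hk0]
    exact h1

theorem der_le_of_relIndex {p : ℕ} {M P : Subgroup G} (hp : p.Prime) (hP : IsPGroup p P)
    (hle : M ≤ P) (hi : M.relIndex P ∣ p) : ⁅P, P⁆ ≤ M := by
  have hn := normalIn_of_relIndex hp hP hle hi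
  rw [← quo_comm_iff hn.norm]
  refine comm_of_cyclic ?_
  rcases (Nat.dvd_prime hp).1 hi with h1 | h1
  · haveI : Subsingleton (quo M P) := by
      rw [← card_quo hn.norm] at h1
      exact (Nat.card_eq_one_iff_unique.1 h1).1
    infer_instance
  · exact cyclic_of_card_prime (by rw [card_quo hn.norm, h1]; exact hp)

/-- a `p`-group with squarefree degrees is metabelian -/
theorem der2_pgroup_top {p : ℕ} (hp : p.Prime) (hP : IsPGroup p G)
    (h : ∀ χ, IsIrrCharacter G χ → Squarefree (deg χ)) :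
    ⁅⁅(⊤ : Subgroup G), (⊤ : Subgroup G)⁆, ⁅(⊤ : Subgroup G), (⊤ : Subgroup G)⁆⁆ = ⊥ := by
  haveI := Fact.mk hp
  haveI := Fintype.ofFinite G
  haveI : Group.IsNilpotent G := hP.isNilpotent
  by_contra hne
  obtain ⟨χ, hχ, hk⟩ := exists_IrrK_not_le (NormalIn.bot (⊤ : Subgroup G))
    (K := ⁅⁅(⊤ : Subgroup G), (⊤ : Subgroup G)⁆, ⁅(⊤ : Subgroup G), (⊤ : Subgroup G)⁆⁆) (by rwa [le_bot_iff])
  have hχ' := IrrK_subset hχ
  have hi := mem_Irr_top.1 hχ'
  obtain ⟨H, lam, hH⟩ := H4.nilpotent_monomial hi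
  have hd : deg χ = H.index := by
    refine deg_eq_of_apply_one ?_
    rw [hH, H4.indFun_apply]
    simp only [mul_one, inv_mul_cancel]
    rw [H4.extendByZero_of_mem _ _ H.one_mem]
    have : (⟨1, H.one_mem⟩ : H) = 1 := rfl
    rw [this, map_one, Units.val_one, Finset.sum_const, Finset.card_univ, nsmul_eq_mul, mul_one,
      ← Nat.card_eq_fintype_card, ← H.card_mul_index, Nat.cast_mul,
      inv_mul_cancel_left₀ (cardC_ne_zero H)]
  have hdv : H.relIndex ⊤ ∣ p := by
    rw [relIndex_top_right]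
    refine dvd_prime_of_sqfree hp (hd ▸ h χ hi) ?_
    obtain ⟨k, hk⟩ := hP.index H
    exact (piN_singleton_iff hp (by rw [hk]; exact pow_ne_zero _ hp.ne_zero)).2 ⟨k, hk⟩
  have hle := der_le_of_relIndex hp (hP.to_subgroup ⊤) le_top hdv
  have hn : NormalIn ⁅⁅(⊤ : Subgroup G), (⊤ : Subgroup G)⁆, ⁅(⊤ : Subgroup G), (⊤ : Subgroup G)⁆⁆ ⊤ :=
    (NormalIn.der ⊤).commutator (NormalIn.der ⊤)
  apply hk
  rw [(isChar_of_Irr hχ').le_cfker_iff le_top]
  intro x hx
  rw [hH, H4.indFun_apply, H4.indFun_apply]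
  congr 1
  refine Finset.sum_congr rfl fun y _ => ?_
  have h1 : y⁻¹ * x * y ∈ ⁅H, H⁆ :=
    commutator_mono hle hle (hn.conj_mem' (mem_top y) hx)
  have h2 := ((isLin_linOfHom lam).mem_cfker.1 ((isLin_linOfHom lam).der_le_cfker h1)).2
  have h3 : linOfHom lam 1 = 1 := (isLin_linOfHom lam).2
  simp only [mul_one, inv_mul_cancel]
  exact h2.trans h3.symm

theorem der2_pgroup {p : ℕ} {P : Subgroup G} (hp : p.Prime) (hP : IsPGroup p P)
    (h : ∀ χ ∈ Irr P, Squarefree (deg χ)) : IsMulCommutative (⁅P, P⁆ : Subgroup G) := by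
  rw [comm_iff_der]
  have h1 := der2_pgroup_top hp hP fun χ hχ => by
    have h2 := h _ (ext_mem_Irr hχ)
    rwa [deg_congr (ψ := χ) (H4.extendByZero_of_mem _ _ P.one_mem)] at h2
  have h2 := congrArg (Subgroup.map P.subtype) h1
  simp only [map_commutator, ← MonoidHom.range_eq_map, range_subtype, Subgroup.map_bot] at h2
  exact h2

theorem sqfree_of_normal {N : Subgroup G} (hN : NormalIn N ⊤)
    (h : ∀ χ ∈ Irr (⊤ : Subgroup G), Squarefree (deg χ)) : ∀ θ ∈ Irr N, Squarefree (deg θ) := by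
  intro θ hθ
  obtain ⟨χ, hχ, h0⟩ := exists_Irr_over hN.le hθ
  exact (h χ hχ).squarefree_of_dvd (deg_dvd_of_const hN hχ hθ h0)

theorem der2_fit (h : ∀ χ ∈ Irr (⊤ : Subgroup G), Squarefree (deg χ)) :
    IsMulCommutative (⁅fittingOf (⊤ : Subgroup G), fittingOf ⊤⁆ : Subgroup G) := by
  set F := fittingOf (⊤ : Subgroup G) with hF
  have hnil : Group.IsNilpotent F := fit_nil ⊤
  refine comm_of_nil_of_syl (nil_of_le hnil (der_le F)) fun p S hp hS => ?_
  have hPn : NormalIn (Op p F) ⊤ :=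
    ⟨le_top, (fit_normal ⊤).norm.trans (norm_le_norm_core _ _)⟩
  have hQn : NormalIn (Op' p F) ⊤ :=
    ⟨le_top, (fit_normal ⊤).norm.trans (norm_le_norm_core _ _)⟩
  have hc := der2_pgroup hp (Op_pgroup hp F) (sqfree_of_normal hPn h)
  refine comm_of_le hc ?_
  have e : Op' p F ⊔ Op p F = F := by
    rw [sup_comm]; exact (nil_core_dp hnil {p}).sup_eq
  have h1 : ⁅F, F⁆ ≤ Op' p F ⊔ ⁅Op p F, Op p F⁆ := by
    have := der_sup_le (K := Op' p F) (H := Op p F) (le_top.trans hQn.norm)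
    rwa [e] at this
  have h2 : Hall {p} ⁅Op p F, Op p F⁆ (⁅Op p F, Op p F⁆ ⊔ Op' p F) :=
    Hall.sup_of_norm ((core_pi _ _).of_le (der_le _)) (core_pi _ _)
      (Or.inl (le_top.trans hQn.norm))
  refine h2.le_of_normal (le_top.trans (hPn.commutator hPn).norm)
    ((piG_singleton hp).2 hS.isPGroup) (hS.le.trans (by rwa [sup_comm]))

/-- an `r`-group acting on the linear characters of an `r'`-group with orbits of length `≤ r` -/
theorem lin_orbit {r : ℕ} {K P : Subgroup G} (hr : r.Prime) (hP : IsPGroup r P)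
    (hK : PiG {r}ᶜ K) (hn : P ≤ 𝒩(K))
    (h : ∀ θ, IsLin K θ → (inertia P θ).relIndex P ∣ r) :
    ∃ M ≤ P, M.relIndex P ∣ r ∧ ∀ θ, IsLin K θ → M ≤ inertia P θ := by
  by_cases h0 : ∀ θ, IsLin K θ → P ≤ inertia P θ
  · exact ⟨P, le_rfl, by simp, h0⟩
  push Not at h0
  obtain ⟨a, ha, haP⟩ := h0
  refine ⟨inertia P a, inertia_le, h a ha, fun b hb => ?_⟩
  by_contra hab
  have hlin : ∀ θ, IsLin K θ → ∀ y ∈ P, IsLin K (cfConj y θ) := fun θ hθ y hy => by
    have := hθ.cfConj y
    rwa [(normalIn_norm K).cj_eq (hn hy)] at this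
  have hra : (inertia P a).relIndex P = r :=
    ((Nat.dvd_prime hr).1 (h a ha)).resolve_left fun e => haP (relIndex_eq_one.1 e)
  -- an element fixing `a b` but not both
  obtain ⟨g, hg, hg'⟩ : ∃ g ∈ inertia P (a * b), g ∉ inertia P a ⊓ inertia P b := by
    by_contra hc
    push Not at hc
    have h1 : inertia P (a * b) ≤ inertia P a ⊓ inertia P b := hc
    have h2 : (inertia P a ⊓ inertia P b).relIndex P ∣ r :=
      (relIndex_dvd_of_le_left P h1).trans (h _ (ha.mul hb))
    have h3 := relIndex_mul_relIndex (inertia P a ⊓ inertia P b) (inertia P a) P inf_le_left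
      inertia_le
    rw [hra] at h3
    rw [← h3] at h2
    have h4 : (inertia P a ⊓ inertia P b).relIndex (inertia P a) = 1 := by
      have := Nat.le_of_dvd hr.pos h2
      have h5 := relIndex_pos (inertia P a ⊓ inertia P b) (inertia P a)
      nlinarith [hr.pos]
    exact hab ((relIndex_eq_one.1 h4).trans inf_le_right)
  have hgP : g ∈ P := inertia_le hg
  have hgab : cfConj g a * cfConj g b = a * b := by
    rw [← cfConj_mul_fun]; exact (mem_inertia.1 hg).2
  set μ := cfConj g a * star a with hμ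
  have hμl : IsLin K μ := (hlin a ha g hgP).mul ha.star
  have hμ2 : μ = b * star (cfConj g b) := by
    refine mul_lin_cancel (hlin b hb g hgP) hμl.1.1 (hb.mul (hlin b hb g hgP).star).1.1 ?_
    rw [mul_assoc b, (hlin b hb g hgP).star_mul, mul_cf1_of_supp hb.1.1, hμ, mul_right_comm, hgab,
      mul_right_comm, ha.mul_star, cf1_mul_of_supp hb.1.1]
  have hfix : ∀ θ, IsLin K θ → ∀ y ∈ inertia P θ, cfConj y (cfConj g θ) = cfConj g θ :=
    fun θ hθ y hy => by
      have h1 := (normalIn_of_relIndex hr hP inertia_le (h θ hθ)).conj_mem' hgP hy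
      rw [← cfConj_mul, show y * g = g * (g⁻¹ * y * g) by group, cfConj_mul,
        (mem_inertia.1 h1).2]
  have h1 : inertia P a ≤ inertia P μ := fun y hy => mem_inertia.2 ⟨inertia_le hy, by
    rw [hμ, cfConj_mul_fun, cfConj_star, hfix a ha y hy, (mem_inertia.1 hy).2]⟩
  have h2 : inertia P b ≤ inertia P μ := fun y hy => mem_inertia.2 ⟨inertia_le hy, by
    rw [hμ2, cfConj_mul_fun, cfConj_star, hfix b hb y hy, (mem_inertia.1 hy).2]⟩
  have h3 : P ≤ inertia P μ := by
    rcases (Nat.dvd_prime hr).1 (h μ hμl) with e | e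
    · exact relIndex_eq_one.1 e
    · exfalso
      have key : ∀ θ, IsLin K θ → inertia P θ ≤ inertia P μ → inertia P μ ≤ inertia P θ :=
        fun θ hθ hle => by
          have h4 := relIndex_mul_relIndex _ _ P hle inertia_le
          rw [e] at h4
          have h5 := Nat.le_of_dvd hr.pos (h θ hθ)
          have h6 := relIndex_pos (inertia P θ) (inertia P μ)
          refine relIndex_eq_one.1 ?_
          nlinarith [hr.pos]
      exact hab (h1.trans (key b hb h2))
  have hgμ : cfConj g μ = μ := (mem_inertia.1 (h3 hgP)).2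
  have hga : cfConj g a = μ * a := by
    rw [hμ, mul_assoc, ha.star_mul, mul_cf1_of_supp (hlin a ha g hgP).1.1]
  have hpow : ∀ k : ℕ, cfConj (g ^ k) a = μ ^ k * a := fun k => by
    induction k with
    | zero => simp [cfConj_one]
    | succ k ih =>
      have : ∀ j : ℕ, cfConj g (μ ^ j) = μ ^ j := fun j => by
        induction j with
        | zero => ext x; simp [cfConj_apply]
        | succ j ih => rw [pow_succ, cfConj_mul_fun, ih, hgμ]
      rw [pow_succ', cfConj_mul, ih, cfConj_mul_fun, this, hga, pow_succ, ← mul_assoc]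
  have hμ1 : ∀ x ∈ K, μ x = 1 := fun x hx => by
    have e1 : μ x ^ orderOf g = 1 := by
      have := congrFun (hpow (orderOf g)) x
      rw [pow_orderOf_eq_one, cfConj_one, Pi.mul_apply, Pi.pow_apply] at this
      exact (mul_left_inj' (ha.ne_zero hx)).1 (by rw [one_mul]; exact this.symm)
    have e2 := hμl.pow_orderOf hx
    have hc : (orderOf g).Coprime (orderOf x) :=
      PiN.coprime (((piG_singleton hr).2 hP).piE hgP) (hK.piE hx)
    have := (pow_gcd_eq_one.2 ⟨e1, e2⟩ : μ x ^ (orderOf g).gcd (orderOf x) = 1)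
    rwa [hc, pow_one] at this
  have hμc : μ = cf1 K := supp_ext hμl.1.1 (cf1_mem_CF K).1 fun x hx => by
    rw [hμ1 x hx, cf1_of_mem hx]
  have e1 : cfConj g a = a := by rw [hga, hμc, cf1_mul_of_supp ha.1.1]
  refine hg' ⟨mem_inertia.2 ⟨hgP, e1⟩, mem_inertia.2 ⟨hgP, ?_⟩⟩
  rw [e1, mul_comm a, mul_comm a] at hgab
  exact mul_lin_cancel ha (hlin b hb g hgP).1.1 hb.1.1 hgab

theorem card_Op_quo_fit [Group.IsSolvable G] (h : ∀ χ ∈ Irr (⊤ : Subgroup G), Squarefree (deg χ))
    {r : ℕ} (hr : r.Prime) :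
    Nat.card (Op r (quo (fittingOf (⊤ : Subgroup G)) ⊤)) ∣ r := by
  haveI := Fact.mk hr
  set F := fittingOf (⊤ : Subgroup G) with hF
  have hnil : Group.IsNilpotent F := fit_nil ⊤
  have hFn : NormalIn F ⊤ := fit_normal ⊤
  set R := coquo F (Op r (quo F ⊤)) with hR
  have hRn : NormalIn R ⊤ := normalIn_coquo hFn (core_normal _ _)
  have hFR : F ≤ R := le_coquo _
  have hi : PiN {r} (F.relIndex R) := by rw [relIndex_coquo_ker]; exact core_pi _ _
  rw [← relIndex_coquo_ker, ← hR]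
  set K := Op' r F with hK
  have hKn : NormalIn K ⊤ := ⟨le_top, hFn.norm.trans (norm_le_norm_core _ _)⟩
  have hKR : Hall {r}ᶜ K R :=
    (nil_core_hall hnil {r}ᶜ).trans_of_idx hFR (by rwa [compl_compl])
  obtain ⟨P, hP⟩ := H1.exists_isSylowIn r R
  have hPR : Hall {r} P R := (hall_singleton hr).2 hP
  have hKP : K ⊔ P = R := by rw [sup_comm]; exact hPR.sup_eq hKR
  have hKR' : NormalIn K R := hKn.mono hKR.le le_top
  obtain ⟨M, hMP, hMi, hM⟩ := lin_orbit hr hP.isPGroup hKR.pi (le_top.trans hKn.norm)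
    fun θ hθ => by
      obtain ⟨ψ, hψ, h0⟩ := exists_Irr_over hKR.le hθ.mem_Irr
      obtain ⟨e, -, -, he⟩ := clifford_deg hKR' hψ hθ.mem_Irr h0
      have h1 : Squarefree ((inertia R θ).relIndex R) :=
        (sqfree_of_normal hRn h ψ hψ).squarefree_of_dvd
          (he ▸ (Dvd.intro _ rfl).mul_left e)
      have h2 : inertia P θ = inertia R θ ⊓ P := by
        ext y
        simp only [mem_inertia, mem_inf]
        exact ⟨fun h => ⟨⟨hP.le h.1, h.2⟩, h.1⟩, fun h => ⟨h.2, h.1.2⟩⟩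
      have h3 : K ≤ inertia R θ := le_inertia hKR.le hθ.1.inv
      have h4 : (inertia P θ).relIndex P = (inertia R θ).relIndex R := by
        have e1 := card_mul_of_forall_mul (M := R) (A := inertia R θ) (B := P) inertia_le hP.le
          fun m hm => by
            obtain ⟨k, hk, y, hy, rfl⟩ := NormalIn.exists_mul_of_mem_sup (le_top.trans hKn.norm)
              (hKP ▸ hm : m ∈ K ⊔ P)
            exact ⟨k, h3 hk, y, hy, rfl⟩
        rw [← h2, ← relIndex_mul_card' (inertia_le (L := R) (φ := θ)),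
          ← relIndex_mul_card' (inertia_le (L := P) (φ := θ))] at e1
        have e2 := Nat.card_pos (α := inertia R θ)
        have e3 := Nat.card_pos (α := inertia P θ)
        have : (inertia P θ).relIndex P * (Nat.card (inertia R θ) * Nat.card (inertia P θ)) =
            (inertia R θ).relIndex R * (Nat.card (inertia R θ) * Nat.card (inertia P θ)) := by
          linarith
        exact Nat.eq_of_mul_eq_mul_right (Nat.mul_pos e2 e3) this
      exact dvd_prime_of_sqfree hr (h4 ▸ h1) (hPR.pi.relIndex _)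
  set C := centMod R K ⁅K, K⁆ with hC
  have hK'n : NormalIn ⁅K, K⁆ ⊤ := hKn.commutator hKn
  have hCn : NormalIn C ⊤ := by
    refine ⟨le_top, ?_⟩
    have h1 : C = R ⊓ centMod ⊤ K ⁅K, K⁆ := by
      ext x
      simp [hC, mem_centMod]
    rw [h1]
    exact (hRn.inf (centMod_normal hKn.norm hK'n.norm)).norm
  have hCR : C ≤ R := (le_centMod_iff.1 le_rfl).1
  have hKC : K ≤ C := le_centMod_iff.2 ⟨hKR.le, le_top.trans hK'n.norm, le_rfl⟩
  have hMC : M ≤ C := by
    refine le_centMod_iff.2 ⟨hMP.trans hP.le, le_top.trans hK'n.norm, ?_⟩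
    rw [commutator_le]
    intro k hk m hm
    by_contra hc
    obtain ⟨χ, hχ, hx⟩ := exists_IrrK_not_mem_cfker (NormalIn.der K) hc
    have hl := isLin_of_mem_IrrK le_rfl hχ
    exact hx ((hl.cfConj_eq_iff (hKn.norm (mem_top m))).1 (mem_inertia.1 (hM χ hl hm)).2 k hk)
  have hPC : Hall {r} (P ⊓ C) C := hPR.inf_normal (hCn.mono hCR le_top)
  have hKC' : Hall {r}ᶜ K C := hKR.mono hKC hCR
  have hcent : P ⊓ C ≤ 𝒞(K) :=
    coprime_cent_der_of_nil (nil_of_le hnil (core_le _ _)) (hKR.pi.coprime' hPC.pi)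
      ((commutator_mono le_rfl inf_le_right).trans (le_centMod_iff.1 le_rfl).2.2)
  have hCnil : Group.IsNilpotent C := by
    rw [← hPC.sup_eq hKC']
    exact nil_sup (nil_of_pgroup (hP.isPGroup.to_inf_left)) (nil_of_le hnil (core_le _ _))
      (hcent.trans cent_le_norm) ((cent_comm.1 hcent).trans cent_le_norm)
  have hMF : M ≤ F := hMC.trans (le_fit hCn hCnil)
  have e : F ⊔ P = R :=
    le_antisymm (sup_le hFR hP.le) (hKP ▸ sup_le_sup_right (core_le _ _) _)
  rw [← e, relIndex_sup_of_norm (le_top.trans hFn.norm)]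
  exact (relIndex_dvd_of_le_left P hMF).trans hMi

theorem der4 [Group.IsSolvable G] (h : ∀ χ ∈ Irr (⊤ : Subgroup G), Squarefree (deg χ)) :
    derivedSeries G 4 = ⊥ := by
  set F := fittingOf (⊤ : Subgroup G) with hF
  have hFn : NormalIn F ⊤ := fit_normal ⊤
  have hs : Group.IsSolvable (⊤ : Subgroup G) := inferInstance
  have hc : IsCyclic (fittingOf (quo F ⊤)) := by
    refine cyclic_of_nil_of_syl (fit_nil _) fun p P hp hP => ?_
    rw [nil_syl_eq (fit_nil _) hp hP, Op_fit hp]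
    rcases (Nat.dvd_prime hp).1 (card_Op_quo_fit h hp) with h1 | h1
    · haveI := (Nat.card_eq_one_iff_unique.1 h1).1
      infer_instance
    · exact cyclic_of_card_prime (by rw [hF, h1]; exact hp)
  have h1 : ⁅quo F ⊤, quo F ⊤⁆ ≤ fittingOf (quo F ⊤) :=
    (le_inf (der_le _) ((commutator_mono (fit_normal _).norm (fit_normal _).norm).trans
      (der_norm_le_cent_of_cyclic hc))).trans (cent_fit_le (quo_sol hs))
  have h2 : ⁅⁅(⊤ : Subgroup G), (⊤ : Subgroup G)⁆, ⁅(⊤ : Subgroup G), (⊤ : Subgroup G)⁆⁆ ≤ F := by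
    rw [← quo_comm_iff (le_top.trans hFn.norm), quo_commutator hFn.norm hFn.norm]
    exact comm_of_le (comm_of_cyclic hc) h1
  have h3 := comm_iff_der.1 (der2_fit h)
  rw [eq_bot_iff, ← h3]
  have h4 := commutator_mono h2 h2
  exact commutator_mono h4 h4

end Cfsg.Agent.H5.SqF
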